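import Cfsg.Agent.H539.Eight.SgnModels
import Cfsg.Agent.H539.Eight.Cnt
import Cfsg.Agent.H477.HC.RowO
import Cfsg.Agent.H477.HC.Rk3Chars
import Cfsg.Agent.H664.Eight.Base
import Cfsg.Agent.H167.HasSt
import Cfsg.Agent.Nodes.WittInst
import Cfsg.Agent.S0292

/-!
# S4899: `Ω₇(3)` has at least 8 character degrees (helper688)

Characters of `O₇(3)` of degree 91, 273, 7280, 17920 give degrees 91, 273, `7280/t`, `17920/t'` of `Ω₇(3)`, `t, t' ∣ 4`;
the action on the singular points gives 168, 195; the Steinberg character has degree 19683.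
-/

set_option autoImplicit false

open Cfsg

namespace Cfsg.Agent.H688.Eight

open Cfsg.Agent.Characters Cfsg.Agent.H477.HC Cfsg.Agent.H664.Eight

universe u

theorem mem_of_irr {S : Type u} [Group S] {χ : S → ℂ} {d : ℕ} (hχ : IsIrrCharacter S χ) (h : χ 1 = d) :
    d ∈ charDegrees S :=
  ⟨⟨χ, hχ⟩, H670.PSing.charDegree_eq_of h⟩

/-- descent to `N / Z(N)` -/
theorem down_mem {I : Type u} [Group I] [Finite I] (N : Subgroup I) [N.Normal] {χ : I → ℂ} (hχ : IsIrrCharacter I χ)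
    {d : ℕ} (hd : χ 1 = d) (hz : ∀ z : N, z ∈ Subgroup.center N → χ z = χ 1) :
    ∃ e ∈ charDegrees (N ⧸ Subgroup.center N), e ∣ d ∧ d / e ∣ N.index := by
  obtain ⟨θ, e, hθ, he, h3, h4, h5, h6⟩ := down_constituent N hχ hd
  obtain ⟨η, hη, hη'⟩ := exists_quot (Subgroup.center N) hθ fun z hzc => h6 z hzc (hz z hzc)
  have h7 : η 1 = e := by
    rw [← he, ← hη' 1]
    rfl
  exact ⟨e, mem_of_irr hη h7, h3, h4⟩

/-- characters of `O_{2m+1}(q)` and degrees of `Ω_{2m+1}(q)` -/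
theorem odd_mem (K : Type u) [Field K] [Finite K] {p : ℕ} [Fact p.Prime] [CharP K p] (ho : Odd (Nat.card K))
    (h2 : (2 : K) ≠ 0) {m : ℕ} (hm : 3 ≤ m) {χ : (CForm.oddF K m h2).iso → ℂ}
    (hχ : IsIrrCharacter (CForm.oddF K m h2).iso χ) {d : ℕ} (hd : χ 1 = d) :
    ∃ e ∈ charDegrees (POmega K (quadFormOdd m K)), e ∣ d ∧ d / e ∣ 4 := by
  obtain ⟨hidx, hcen⟩ := odd_idx K (p := p) ho hm
  have hχ' := Core.isIrr_comp (isoQuad (CForm.oddF K m h2) (odd_hB K m h2)).toMonoidHom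
    (isoQuad (CForm.oddF K m h2) (odd_hB K m h2)).surjective hχ
  have hd' : (χ ∘ (isoQuad (CForm.oddF K m h2) (odd_hB K m h2)).toMonoidHom)
      (1 : isometryGroup K (CForm.oddF K m h2).Q) = d := by
    rw [Function.comp_apply, map_one, hd]
  obtain ⟨e, he, h3, h4⟩ := down_mem (Omega K (quadFormOdd m K)) hχ' (d := d) hd' (fun z hz => by
    rw [hcen z hz]
    rfl)
  rw [hidx] at h4
  exact ⟨e, he, h3, h4⟩

/-- the degrees `dg k` -/
theorem odd_dg_mem (K : Type u) [Field K] [Finite K] {p : ℕ} [Fact p.Prime] [CharP K p] (ho : Odd (Nat.card K))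
    (h2 : (2 : K) ≠ 0) {k n : ℕ} (hm : 3 ≤ k + n) (hk : 0 < k) (h5 : 3 < Nat.card K ^ k) :
    ∃ e ∈ charDegrees (POmega K (quadFormOdd (k + n) K)), e ∣ dg (CForm.oddF K (k + n) h2) k ∧
      dg (CForm.oddF K (k + n) h2) k / e ∣ 4 := by
  obtain ⟨c, hc⟩ := exists_cus_one (K := K) rfl k hk h5 (by
    rintro ⟨h3, -⟩
    rw [h3] at ho
    exact absurd ho (by decide))
  obtain ⟨⟨W₀, hW₀⟩, -⟩ := CForm.oddF_frame (K := K) (p := p) h2 k n
  obtain ⟨χ, hχ, hχ1, -⟩ := exists_char (CForm.oddF K (k + n) h2) hW₀ hc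
  exact odd_mem K (p := p) ho h2 hm hχ hχ1

theorem mem_four {d : ℕ} (h : d ∣ 4) : d = 1 ∨ d = 2 ∨ d = 4 := by
  have h1 : d ∈ Nat.divisors 4 := Nat.mem_divisors.2 ⟨h, by norm_num⟩
  have h2 : Nat.divisors 4 = {1, 2, 4} := by decide
  rw [h2] at h1
  simpa using h1

/-- **`Ω₇(3)`** -/
theorem eight_o73 {F : Type u} [Field F] [Fintype F] (hF : Fintype.card F = 3) : Eight (POmega F (quadFormOdd 3 F)) := by
  have hq : Nat.card F = 3 := by rw [Nat.card_eq_fintype_card, hF]
  have : Fact (Nat.Prime 3) := ⟨Nat.prime_three⟩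
  have hcp : CharP F 3 := by
    obtain ⟨p, hp⟩ := CharP.exists F
    have hpp : p.Prime := (CharP.char_is_prime_or_zero F p).resolve_right (CharP.char_ne_zero_of_finite F p)
    have : Fact p.Prime := ⟨hpp⟩
    obtain ⟨n, -, hn⟩ := FiniteField.card F p
    rw [hF] at hn
    have h1 : p ∣ 3 := by
      rw [hn]
      exact dvd_pow_self p n.2.ne'
    rwa [(Nat.prime_dvd_prime_iff_eq hpp Nat.prime_three).1 h1] at hp
  have ho : Odd (Nat.card F) := by rw [hq]; decide
  have h2 := two_ne_zero_of_odd (K := F) (p := 3) ho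
  have hfin : Finite (POmega F (quadFormOdd 3 F)) := by
    unfold POmega
    infer_instance
  -- 91 and 273
  obtain ⟨⟨χ, a, hχ, hχ1, ha⟩, ⟨χ', b, hχ', hχ1', hb⟩⟩ := H539.Eight.sgn_odd F h2 ho (m := 3) (by norm_num)
  rw [hq] at ha hb
  norm_num at ha hb
  have ha' : a = 91 := by omega
  have hb' : b = 273 := by omega
  subst ha' hb'
  obtain ⟨e1, m1, d1, d1'⟩ := odd_mem F (p := 3) ho h2 le_rfl hχ hχ1
  obtain ⟨e2, m2, d2, d2'⟩ := odd_mem F (p := 3) ho h2 le_rfl hχ' hχ1'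
  have k1 : e1 = 91 := by
    obtain ⟨c, hc⟩ := d1
    have hc0 : 0 < e1 := Nat.pos_of_ne_zero (by rintro rfl; omega)
    rw [hc, Nat.mul_div_cancel_left _ hc0] at d1'
    rcases mem_four d1' with rfl | rfl | rfl <;> omega
  have k2 : e2 = 273 := by
    obtain ⟨c, hc⟩ := d2
    have hc0 : 0 < e2 := Nat.pos_of_ne_zero (by rintro rfl; omega)
    rw [hc, Nat.mul_div_cancel_left _ hc0] at d2'
    rcases mem_four d2' with rfl | rfl | rfl <;> omega
  subst k1 k2
  -- 168 and 195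
  obtain ⟨s, t, ⟨ψ, hψ, hψ1⟩, ⟨ψ', hψ', hψ1'⟩, hs, ht⟩ := rk3_odd F h2 ho (m := 3) le_rfl
  rw [hq] at hs ht
  norm_num at hs ht
  have hs' : s = 195 := by omega
  have ht' : t = 168 := by omega
  subst hs' ht'
  have m3 := mem_of_irr hψ hψ1
  have m4 := mem_of_irr hψ' hψ1'
  -- `dg 2`, `dg 3`
  obtain ⟨e5, m5, d5, d5'⟩ := odd_dg_mem F (p := 3) ho h2 (k := 2) (n := 1) (by norm_num) (by norm_num)
    (by rw [hq]; norm_num)
  obtain ⟨e6, m6, d6, d6'⟩ := odd_dg_mem F (p := 3) ho h2 (k := 3) (n := 0) (by norm_num) (by norm_num)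
    (by rw [hq]; norm_num)
  have g5 := H539.Eight.dg_odd F h2 ho (k := 2) (by norm_num) 1
  have g6 := H539.Eight.dg_odd F h2 ho (k := 3) (by norm_num) 0
  rw [hq, Finset.prod_Ico_succ_top (by norm_num), Finset.prod_Ico_succ_top (by norm_num), Finset.Ico_self,
    Finset.prod_empty] at g5
  rw [hq, Finset.prod_Ico_succ_top (by norm_num), Finset.prod_Ico_succ_top (by norm_num),
    Finset.prod_Ico_succ_top (by norm_num), Finset.Ico_self, Finset.prod_empty] at g6
  norm_num at g5 g6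
  have g5' : dg (CForm.oddF F (2 + 1) h2) 2 = 7280 := by omega
  have g6' : dg (CForm.oddF F (3 + 0) h2) 3 = 17920 := by
    have : dg (CForm.oddF F (3 + 0) h2) 3 = dg (CForm.oddF F 3 h2) 3 := rfl
    omega
  rw [g5'] at d5 d5'
  rw [g6'] at d6 d6'
  have k5 : e5 = 7280 ∨ e5 = 3640 ∨ e5 = 1820 := by
    obtain ⟨c, hc⟩ := d5
    have hc0 : 0 < e5 := Nat.pos_of_ne_zero (by rintro rfl; omega)
    rw [hc, Nat.mul_div_cancel_left _ hc0] at d5'
    rcases mem_four d5' with rfl | rfl | rfl <;> omega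
  have k6 : e6 = 17920 ∨ e6 = 8960 ∨ e6 = 4480 := by
    obtain ⟨c, hc⟩ := d6
    have hc0 : 0 < e6 := Nat.pos_of_ne_zero (by rintro rfl; omega)
    rw [hc, Nat.mul_div_cancel_left _ hc0] at d6'
    rcases mem_four d6' with rfl | rfl | rfl <;> omega
  -- the Steinberg character
  have m7 : 19683 ∈ charDegrees (POmega F (quadFormOdd 3 F)) := by
    obtain ⟨χ, hχ, h1, -⟩ := H167.StChar.HasSt.of_hasRGD (Nodes.WittInst.hasRGD_PO_odd (F := F) (m := 3) (p := 3) h2
      (by norm_num))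
    refine mem_of_irr hχ ?_
    rw [h1]
    congr 1
    have hc := Cfsg.Agent.S0292.result hF (by decide) 3 le_rfl (F := F)
    rw [Finset.prod_range_succ, Finset.prod_range_succ, Finset.prod_range_one] at hc
    norm_num at hc
    have hc' : Nat.card (POmega F (quadFormOdd 3 F)) = 3 ^ 9 * 232960 := by omega
    rw [hc', Nat.factorization_mul (by norm_num) (by norm_num), Finsupp.add_apply,
      Nat.prime_three.factorization_pow, Finsupp.single_eq_same,
      Nat.factorization_eq_zero_of_not_dvd (by norm_num)]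
    norm_num
  refine eight_of_finset {1, 91, 168, 195, 273, e5, e6, 19683} ?_ ?_
  · rw [Finset.card_insert_of_notMem, Finset.card_insert_of_notMem, Finset.card_insert_of_notMem,
      Finset.card_insert_of_notMem, Finset.card_insert_of_notMem, Finset.card_insert_of_notMem,
      Finset.card_insert_of_notMem, Finset.card_singleton]
    all_goals
      simp only [Finset.mem_insert, Finset.mem_singleton]
      omega
  · intro d hd
    simp only [Finset.mem_insert, Finset.mem_singleton] at hd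
    rcases hd with rfl | rfl | rfl | rfl | rfl | rfl | rfl | rfl
    · exact one_mem
    · exact m1
    · exact m4
    · exact m3
    · exact m2
    · exact m5
    · exact m6
    · exact m7

end Cfsg.Agent.H688.Eight
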